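import Cfsg.Agent.OD.Pre
import Cfsg.Agent.H6.Top2
import Cfsg.Agent.H6.M22A.C
set_option autoImplicit false
set_option maxRecDepth 100000
set_option Elab.async false
set_option linter.all false
namespace CfH6.M22A
open CfH6 MulAction
theorem e0_0 : EqsOk nets0 eqs0 24 5 0 5 :=
  eqsOk_of _ _ _ _ 0 5 _ (by decide) (by decide +kernel)
theorem ok0 : okNets 24 nets0 = true := by decide +kernel
theorem x1_0 : NxOk nets0 ws1 nets1 4 24 5 24 0 5 :=
  nxOk_of _ _ _ _ _ _ _ 0 5 _ (by decide) (by decide +kernel)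
theorem sx1 : sideNx ws1 nets1 5 24 5 24 = true := by decide +kernel
theorem x2_0 : NxOk nets1 ws2 nets2 4 24 5 24 0 5 :=
  nxOk_of _ _ _ _ _ _ _ 0 5 _ (by decide) (by decide +kernel)
theorem sx2 : sideNx ws2 nets2 4 24 5 24 = true := by decide +kernel
theorem x3_0 : NxOk nets2 ws3 nets3 3 24 5 20 0 5 :=
  nxOk_of _ _ _ _ _ _ _ 0 5 _ (by decide) (by decide +kernel)
theorem sx3 : sideNx ws3 nets3 4 24 5 20 = true := by decide +kernel
theorem x4_0 : NxOk nets3 ws4 nets4 1 20 5 8 0 5 :=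
  nxOk_of _ _ _ _ _ _ _ 0 5 _ (by decide) (by decide +kernel)
theorem sx4 : sideNx ws4 nets4 3 20 5 8 = true := by decide +kernel
theorem oi1_0 : (Nat.blt 0 4 && Nat.beq (orbN nets1 4 16 (Nat.shiftLeft 1 1)) S1) = true := by decide +kernel
theorem ci1 : (Nat.beq (chkInv nets1 4 S1) 0 && S1.testBit 1) = true := by decide +kernel
theorem cm1 : chkMx 24 nets0 5 ws1 4 22 w1 1 J1 lBig = true := by decide +kernel
theorem og4 : Nat.ble 3 (popc 3 (orbN nets4 1 2 (Nat.shiftLeft 1 4))) = true := by decide +kernel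
theorem og3 : Nat.ble 16 (popc 5 (orbN nets3 3 6 (Nat.shiftLeft 1 3))) = true := by decide +kernel
theorem og2 : Nat.ble 20 (popc 5 (orbN nets2 4 12 (Nat.shiftLeft 1 2))) = true := by decide +kernel
theorem pw0 : (allLt 5 (wpow [0, 1, 3, 4, 2] (11 ^ 1)) && bs'.all fun b => Nat.blt b 24 && Nat.beq (chkMap nets0 (wpow [0, 1, 3, 4, 2] (11 ^ 1)) b b) 0) = true := by decide +kernel
end CfH6.M22A
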